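import Mathlib.Algebra.MonoidAlgebra.Basic
import Mathlib.Algebra.CharP.Lemmas
import Mathlib.Algebra.CharP.Algebra
import Mathlib.Algebra.Field.ZMod
import Mathlib.FieldTheory.Finite.Basic

/-!
Symmetric cyclic difference sets of prime order are trivial: an argument in the group algebra
of `ZMod p` in characteristic `p`.
-/

set_option autoImplicit false

namespace Cfsg.Agent.Lib.PermMod.DiffSet

open AddMonoidAlgebra Finset

variable {p : ℕ} [hp : Fact p.Prime]

/-- The group algebra. -/
abbrev R (p : ℕ) [Fact p.Prime] := AddMonoidAlgebra (ZMod p) (ZMod p)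

/-- The basis elements. -/
noncomputable def el (x : ZMod p) : R p := single x 1

theorem el_mul (x y : ZMod p) : el x * el y = el (x + y) := by
  simp [el, single_mul_single]

theorem el_zero : el (0 : ZMod p) = 1 := rfl

theorem el_pow_p (x : ZMod p) : el x ^ p = 1 := by
  rw [el, single_pow, one_pow, ← el]
  have : p • x = 0 := by
    rw [nsmul_eq_mul]
    simp
  rw [this, el_zero]

instance instCharP : CharP (R p) p :=
  charP_of_injective_algebraMap (algebraMap (ZMod p) (R p)).injective p

/-- The sum of the basis elements. -/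
noncomputable def allE (p : ℕ) [Fact p.Prime] : R p := ∑ x : ZMod p, el x

theorem allE_mul_el (v : ZMod p) : allE p * el v = allE p := by
  rw [allE, Finset.sum_mul]
  simp only [el_mul]
  exact Fintype.sum_equiv (Equiv.addRight v) _ _ (fun _ => rfl)

theorem allE_mul (w : R p) : ∃ c : ZMod p, allE p * w = c • allE p := by
  induction w using AddMonoidAlgebra.induction_linear with
  | zero => exact ⟨0, by simp⟩
  | add a b ha hb =>
    obtain ⟨c₁, h₁⟩ := ha
    obtain ⟨c₂, h₂⟩ := hb
    exact ⟨c₁ + c₂, by rw [mul_add, h₁, h₂, add_smul]⟩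
  | single v a =>
    refine ⟨a, ?_⟩
    have h1 : (single v a : R p) = a • el v := by
      simp [el, smul_single]
    rw [h1, mul_smul_comm, allE_mul_el]

theorem coeff_el (x y : ZMod p) : (el x).coeff y = if x = y then 1 else 0 := by
  simp [el, Finsupp.single_apply]

theorem coeff_allE (y : ZMod p) : (allE p).coeff y = 1 := by
  rw [allE, coeff_sum, Finsupp.finsetSum_apply]
  simp [coeff_el]

/-- A symmetric difference set in `ZMod p` is trivial. -/
theorem diffset_trivial (hp2 : p ≠ 2) (D : Finset (ZMod p)) (hsym : ∀ x, x ∈ D → -x ∈ D)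
    (hk0 : D.Nonempty) (hkp : D.card < p) (lam : ℕ)
    (hlam : ∀ u : ZMod p, u ≠ 0 → (D.filter (fun d => d - u ∈ D)).card = lam) :
    ∀ x y : ZMod p, x ≠ 0 → y ≠ 0 → (x ∈ D ↔ y ∈ D) := by
  classical
  set k := D.card with hk
  let G₁ : R p := ∑ d ∈ D, el d
  -- the square of `G₁`
  have hsq1 : G₁ * G₁ = ∑ u : ZMod p, (D.filter (fun d => d - u ∈ D)).card • el u := by
    rw [Finset.sum_mul_sum]
    simp only [el_mul]
    have h1 : ∀ d ∈ D, ∑ d' ∈ D, el (d + d') = ∑ u : ZMod p, if d - u ∈ D then el u else 0 := by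
      intro d hd
      rw [← Finset.sum_filter]
      apply Finset.sum_nbij' (fun d' => d + d') (fun u => u - d)
      · intro d' hd'
        rw [Finset.mem_filter]
        refine ⟨Finset.mem_univ _, ?_⟩
        have : d - (d + d') = -d' := by ring
        rw [this]
        exact hsym _ hd'
      · intro u hu
        have h2 := (Finset.mem_filter.mp hu).2
        have h3 := hsym _ h2
        have : -(d - u) = u - d := by ring
        rwa [this] at h3
      · intro d' _
        ring
      · intro u _
        ring
      · intro d' _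
        rfl
    rw [Finset.sum_congr rfl h1, Finset.sum_comm]
    refine Finset.sum_congr rfl fun u _ => ?_
    rw [← Finset.sum_filter, Finset.sum_const]
  have hc0 : (D.filter (fun d => d - (0 : ZMod p) ∈ D)).card = k := by
    rw [hk]
    congr 1
    apply Finset.filter_true_of_mem
    intro d hd
    rwa [sub_zero]
  -- the count
  have hcount : k * k = k + (p - 1) * lam := by
    have h1 : ∑ u : ZMod p, (D.filter (fun d => d - u ∈ D)).card = k * k := by
      have h2 : ∀ u : ZMod p, (D.filter (fun d => d - u ∈ D)).card = ∑ d ∈ D, if d - u ∈ D then 1 else 0 := by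
        intro u
        rw [Finset.card_filter]
      simp only [h2]
      rw [Finset.sum_comm]
      have h3 : ∀ d ∈ D, ∑ u : ZMod p, (if d - u ∈ D then 1 else 0) = k := by
        intro d _
        rw [← Finset.card_filter, hk]
        apply Finset.card_nbij' (fun u => d - u) (fun d' => d - d')
        · intro u hu
          exact (Finset.mem_filter.mp hu).2
        · intro d' hd'
          rw [Finset.mem_coe] at hd' ⊢
          rw [Finset.mem_filter]
          refine ⟨Finset.mem_univ _, ?_⟩
          have : d - (d - d') = d' := by ring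
          rwa [this]
        · intro u _
          ring
        · intro d' _
          ring
      rw [Finset.sum_congr rfl h3, Finset.sum_const, smul_eq_mul]
    rw [← h1, ← Finset.add_sum_erase _ _ (Finset.mem_univ (0 : ZMod p)), hc0]
    congr 1
    rw [Finset.sum_congr rfl (fun u hu => hlam u (Finset.ne_of_mem_erase hu)), Finset.sum_const,
      Finset.card_erase_of_mem (Finset.mem_univ _), Finset.card_univ, ZMod.card, smul_eq_mul]
  have hkF : (k : ZMod p) * k = k - lam := by
    have h1 : ((k * k : ℕ) : ZMod p) = ((k + (p - 1) * lam : ℕ) : ZMod p) := by rw [hcount]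
    push_cast at h1
    rw [Nat.cast_sub hp.out.one_lt.le] at h1
    simp only [CharP.cast_eq_zero, zero_sub, Nat.cast_one] at h1
    rw [h1]
    ring
  have hsq2 : G₁ * G₁ = ((k : ZMod p) - lam) • (1 : R p) + (lam : ZMod p) • allE p := by
    rw [hsq1, ← Finset.add_sum_erase _ _ (Finset.mem_univ (0 : ZMod p)), hc0, el_zero]
    rw [Finset.sum_congr rfl (fun u hu => by rw [hlam u (Finset.ne_of_mem_erase hu)])]
    rw [allE, ← Finset.add_sum_erase _ _ (Finset.mem_univ (0 : ZMod p)), el_zero, smul_add,
      ← add_assoc, ← add_smul, sub_add_cancel, Finset.smul_sum]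
    congr 1
    · exact Nat.cast_smul_eq_nsmul (ZMod p) k (1 : R p) |>.symm
    · refine Finset.sum_congr rfl fun u _ => ?_
      exact (Nat.cast_smul_eq_nsmul (ZMod p) lam (el u)).symm
  -- factorisation
  let u₀ : R p := G₁ + (k : ZMod p) • (1 : R p)
  let h₀ : R p := G₁ - (k : ZMod p) • (1 : R p)
  have hfac : h₀ * u₀ = (lam : ZMod p) • allE p := by
    have h1 : h₀ * u₀ = G₁ * G₁ - ((k : ZMod p) * k) • (1 : R p) := by
      simp only [h₀, u₀]
      rw [mul_add, sub_mul, sub_mul]
      simp only [smul_mul_assoc, mul_smul_comm, one_mul, mul_one, smul_smul]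
      abel
    rw [h1, hsq2, hkF]
    abel
  have hpow : u₀ ^ p = ((k : ZMod p) + k) • (1 : R p) := by
    simp only [u₀]
    rw [add_pow_char, smul_pow, ZMod.pow_card, one_pow, add_smul]
    congr 1
    simp only [G₁]
    rw [sum_pow_char]
    simp only [el_pow_p]
    rw [Finset.sum_const, hk]
    exact (Nat.cast_smul_eq_nsmul (ZMod p) D.card (1 : R p)).symm
  obtain ⟨c, hc⟩ := allE_mul (u₀ ^ (p - 1))
  have hmain : ((k : ZMod p) + k) • h₀ = ((lam : ZMod p) * c) • allE p := by
    have h1 : u₀ ^ p = u₀ * u₀ ^ (p - 1) := by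
      rw [← pow_succ']
      congr 1
      have := hp.out.one_lt
      omega
    calc ((k : ZMod p) + k) • h₀ = h₀ * (((k : ZMod p) + k) • (1 : R p)) := by
          rw [mul_smul_comm, mul_one]
      _ = h₀ * u₀ * u₀ ^ (p - 1) := by rw [← hpow, h1, mul_assoc]
      _ = (lam : ZMod p) • (allE p * u₀ ^ (p - 1)) := by rw [hfac, smul_mul_assoc]
      _ = _ := by rw [hc, smul_smul]
  have hk2 : (k : ZMod p) + k ≠ 0 := by
    have h1 : (k : ZMod p) ≠ 0 := by
      intro h
      rw [ZMod.natCast_eq_zero_iff] at h
      have h2 : 0 < k := Finset.card_pos.mpr hk0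
      have := Nat.le_of_dvd h2 h
      omega
    have h2 : (2 : ZMod p) ≠ 0 := by
      intro h
      have h3 : ((2 : ℕ) : ZMod p) = 0 := by exact_mod_cast h
      rw [ZMod.natCast_eq_zero_iff] at h3
      exact hp2 ((Nat.prime_dvd_prime_iff_eq hp.out Nat.prime_two).mp h3)
    rw [← two_mul]
    exact mul_ne_zero h2 h1
  have hcoef : ∀ x : ZMod p, x ≠ 0 → ((k : ZMod p) + k) * (if x ∈ D then 1 else 0) = (lam : ZMod p) * c := by
    intro x hx
    have h1 := congrArg (fun z : R p => z.coeff x) hmain
    simp only [coeff_smul, Finsupp.smul_apply, smul_eq_mul] at h1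
    rw [coeff_allE, mul_one] at h1
    rw [← h1]
    congr 1
    simp only [h₀, G₁, coeff_sub, Finsupp.sub_apply, coeff_sum, Finsupp.finsetSum_apply, coeff_smul,
      Finsupp.smul_apply, smul_eq_mul, coeff_el]
    have h2 : (1 : R p).coeff x = 0 := by
      rw [← el_zero, coeff_el, if_neg (Ne.symm hx)]
    rw [h2, mul_zero, sub_zero]
    rw [Finset.sum_ite_eq']
  intro x y hx hy
  have h1 := hcoef x hx
  have h2 := hcoef y hy
  have h3 := mul_left_cancel₀ hk2 (h1.trans h2.symm)
  by_cases hxD : x ∈ D <;> by_cases hyD : y ∈ D <;> simp only [hxD, hyD, if_true, if_false] at h3 ⊢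
  · exact absurd h3 one_ne_zero
  · exact absurd h3.symm one_ne_zero

end Cfsg.Agent.Lib.PermMod.DiffSet
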