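import Cfsg.Agent.Lib.PermMod.PrimeNormal
import Cfsg.Agent.Lib.PermMod.MinNormal
import Cfsg.Agent.S0677
import Mathlib.GroupTheory.Transfer
import Mathlib.GroupTheory.SpecificGroups.Alternating

/-!
Non-solvable transitive groups of small prime degree: the Sylow normaliser.
-/

set_option autoImplicit false

namespace Cfsg.Agent.Lib.PermMod.PrimeSmall

open MulAction Subgroup
open Cfsg.Agent.Lib.PermMod.SylowPD Cfsg.Agent.Lib.PermMod.PrimeNormal
open Cfsg.Agent.Lib.PermMod.PrimeDegree

variable {α : Type*} [Fintype α] [DecidableEq α] {p : ℕ} [hp : Fact p.Prime]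

/-- An `n`-transitive group has order divisible by the number of `n`-tuples. -/
theorem descFactorial_dvd_card {M : Type*} [Group M] [Finite M] [MulAction M α] {n : ℕ}
    (h : IsMultiplyPretransitive M α n) (hn : n ≤ Fintype.card α) :
    (Fintype.card α).descFactorial n ∣ Nat.card M := by
  classical
  have : IsPretransitive M (Fin n ↪ α) := h
  obtain ⟨a⟩ : Nonempty (Fin n ↪ α) := by
    apply Fintype.card_pos_iff.mp
    rw [Fintype.card_embedding_eq, Fintype.card_fin]
    exact Nat.descFactorial_pos.mpr hn
  have h1 := card_eq_degree_mul (M := M) (α := Fin n ↪ α) a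
  rw [Fintype.card_embedding_eq, Fintype.card_fin] at h1
  rw [h1]
  exact dvd_mul_right _ _

/-- The centraliser of a Sylow `p`-subgroup in a transitive group of degree `p` is the Sylow
subgroup itself. -/
theorem centralizer_sylow_le (hα : Fintype.card α = p) (G : Subgroup (Equiv.Perm α))
    [IsPretransitive G α] (P : Sylow p G) :
    centralizer ((P : Subgroup G) : Set G) ≤ (P : Subgroup G) := by
  obtain ⟨σ, hσP, hσord, hgen, e, he⟩ := exists_label_sylow hα G P
  intro t ht
  have h1 : (t : Equiv.Perm α) * σ * (t : Equiv.Perm α)⁻¹ = (σ : Equiv.Perm α) ^ 1 := by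
    have := (mem_centralizer_iff.mp ht) σ hσP
    have h2 : (σ : Equiv.Perm α) * t = t * σ := congrArg Subtype.val this
    rw [pow_one, ← h2, mul_inv_cancel_right]
  have hform := conj_formula he h1
  set c := e.symm ((t : Equiv.Perm α) (e 0)) with hc
  have hpow : ∀ (j : ZMod p), ((σ : Equiv.Perm α) ^ c.val) (e j) = e (j + (c.val : ZMod p)) :=
    fun j => pow_label he c.val j
  have ht2 : t = σ ^ c.val := by
    apply Subtype.ext
    ext x
    obtain ⟨j, rfl⟩ := e.surjective x
    have h3 := hform j
    rw [Nat.cast_one, one_mul] at h3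
    have h4 : (t : Equiv.Perm α) (e j) = e (c + j) := by
      rw [← h3, Equiv.apply_symm_apply]
    rw [h4]
    simp only [SubgroupClass.coe_pow]
    rw [hpow, ZMod.natCast_zmod_val, add_comm]
  rw [ht2]
  exact pow_mem hσP _

/-- The order of a Sylow `p`-normaliser divides `p (p - 1)`. -/
theorem card_normalizer_dvd (hα : Fintype.card α = p) (G : Subgroup (Equiv.Perm α))
    [IsPretransitive G α] (P : Sylow p G) :
    Nat.card (normalizer ((P : Subgroup G) : Set G)) ∣ p * (p - 1) := by
  set Q : Subgroup G := (P : Subgroup G) with hQ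
  have hcard : Nat.card Q = p := card_sylow hα G P
  have hcyc : IsCyclic Q := isCyclic_of_prime_card hcard
  have key := card_dvd_of_injective _ (QuotientGroup.kerLift_injective Q.normalizerMonoidHom)
  rw [normalizerMonoidHom_ker, ← index, ← relIndex, hcyc.card_mulAut, hcard,
    Nat.totient_prime hp.out] at key
  have hle : centralizer (Q : Set G) ≤ normalizer (Q : Set G) := centralizer_le_normalizer _
  have h1 : Nat.card ((centralizer (Q : Set G)).subgroupOf (normalizer (Q : Set G))) *
      (centralizer (Q : Set G)).relIndex (normalizer (Q : Set G)) =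
        Nat.card (normalizer (Q : Set G)) := card_mul_index _
  rw [Nat.card_congr (subgroupOfEquivOfLe hle).toEquiv] at h1
  rw [← h1]
  refine mul_dvd_mul ?_ key
  rw [← hcard]
  exact card_dvd_of_le (centralizer_sylow_le hα G P)

/-- A Sylow `p`-normaliser of order `p`: the group is solvable. -/
theorem isSolvable_of_card_normalizer (hα : Fintype.card α = p) (G : Subgroup (Equiv.Perm α))
    [IsPretransitive G α] (P : Sylow p G)
    (hN : Nat.card (normalizer ((P : Subgroup G) : Set G)) = p) : Group.IsSolvable G := by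
  set Q : Subgroup G := (P : Subgroup G) with hQ
  have hcard : Nat.card Q = p := card_sylow hα G P
  have hQN : normalizer (Q : Set G) = Q := by
    symm
    apply eq_of_le_of_card_ge le_normalizer
    rw [hN, hcard]
  have hcomm : IsMulCommutative Q := by
    haveI : IsCyclic Q := isCyclic_of_prime_card hcard
    exact ⟨⟨fun a b => mul_comm' a b⟩⟩
  have hNC : normalizer (Q : Set G) ≤ centralizer (Q : Set G) := by
    rw [hQN]
    intro x hx
    rw [mem_centralizer_iff]
    intro y hy
    have := hcomm.is_comm.comm (⟨y, hy⟩ : Q) ⟨x, hx⟩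
    exact congrArg Subtype.val this
  have hc := MonoidHom.ker_transferSylow_isComplement' P hNC
  set K := (MonoidHom.transferSylow P hNC).ker with hK
  have hKn : K.Normal := MonoidHom.normal_ker _
  by_cases hKb : K = ⊥
  · -- `G` has order `p`
    have hcardG : Nat.card G = p := by
      have h1 := hc.card_mul_card
      rw [hKb] at h1
      simp only [Subgroup.card_bot, one_mul] at h1
      rw [← h1]
      exact hcard
    haveI : IsCyclic G := isCyclic_of_prime_card hcardG
    infer_instance
  · -- otherwise the complement is transitive: a contradiction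
    exfalso
    haveI := isPretransitive_normal hα G K hKn hKb
    have h1 : p ∣ Nat.card K := dvd_card_of_transitive hα
    have h2 : ¬ p ∣ Nat.card K := MonoidHom.not_dvd_card_ker_transferSylow P hNC
    exact h2 h1

/-- If all the reflections `j ↦ c - j` are odd, then a Sylow `p`-normaliser in a subgroup of the
alternating group has odd order. -/
theorem not_even_card_normalizer (hα : Fintype.card α = p) (G : Subgroup (Equiv.Perm α))
    [IsPretransitive G α] (hp2 : p ≠ 2)
    (hodd : ∀ c : ZMod p, Equiv.Perm.sign (Equiv.subLeft c : Equiv.Perm (ZMod p)) = -1)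
    (hGA : G ≤ alternatingGroup α) (P : Sylow p G) :
    ¬ Even (Nat.card (normalizer ((P : Subgroup G) : Set G))) := by
  intro heven
  obtain ⟨σ, t, e, c, hσord, hσ, ht⟩ := Cfsg.Agent.S0677.exists_involution_label hα G hp2 P heven
  have h1 : (t : Equiv.Perm α) = e.permCongr (Equiv.subLeft c) := by
    ext x
    obtain ⟨j, rfl⟩ := e.surjective x
    rw [ht]
    simp [Equiv.permCongr_apply]
  have h2 : Equiv.Perm.sign (t : Equiv.Perm α) = -1 := by
    rw [h1, Equiv.Perm.sign_permCongr]
    exact hodd c
  have h3 : (t : Equiv.Perm α) ∈ alternatingGroup α := hGA t.2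
  rw [Equiv.Perm.mem_alternatingGroup, h2] at h3
  exact absurd h3 (by decide)

/-- Passing to the even part of a non-solvable transitive group of odd prime degree. -/
theorem exists_even_part (hα : Fintype.card α = p) (hp2 : p ≠ 2) (G : Subgroup (Equiv.Perm α))
    [IsPretransitive G α] (hG : ¬ Group.IsSolvable G) :
    ∃ K : Subgroup (Equiv.Perm α), K ≤ G ∧ K ≤ alternatingGroup α ∧ IsPretransitive K α ∧
      ¬ Group.IsSolvable K ∧ (Nat.card G = Nat.card K ∨ Nat.card G = 2 * Nat.card K) := by
  have hpp : p.Prime := hp.out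
  let M : Subgroup G := (alternatingGroup α).subgroupOf G
  have hMn : M.Normal := by
    change ((alternatingGroup α).subgroupOf G).Normal
    exact Subgroup.Normal.subgroupOf inferInstance G
  let K : Subgroup (Equiv.Perm α) := M.map G.subtype
  let φ : M ≃* K := M.equivMapOfInjective G.subtype G.subtype_injective
  have hKG : K ≤ G := by
    rintro _ ⟨m, -, rfl⟩
    exact m.2
  have hKA : K ≤ alternatingGroup α := by
    rintro _ ⟨m, hm, rfl⟩
    exact hm
  have hmemK : ∀ x : G, Equiv.Perm.sign (x : Equiv.Perm α) = 1 → (x : Equiv.Perm α) ∈ K := by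
    intro x hx
    exact mem_map.mpr ⟨x, hx, rfl⟩
  obtain ⟨σ, hσG, hσord, -⟩ := exists_label hα G
  have hσs : Equiv.Perm.sign σ = 1 := by
    have h1 : (Equiv.Perm.sign σ) ^ p = 1 := by
      rw [← map_pow, ← hσord, pow_orderOf_eq_one, map_one]
    have hodd : Odd p := hpp.odd_of_ne_two hp2
    rcases Int.units_eq_one_or (Equiv.Perm.sign σ) with h | h
    · exact h
    · rw [h, hodd.neg_one_pow] at h1
      exact absurd h1 (by decide)
  have hσ1 : σ ≠ 1 := by
    intro h
    rw [h, orderOf_one] at hσord
    exact hpp.one_lt.ne hσord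
  have hMb : M ≠ ⊥ := by
    intro h
    have h1 : (⟨σ, hσG⟩ : G) ∈ M := hσs
    rw [h, mem_bot] at h1
    exact hσ1 (congrArg Subtype.val h1)
  haveI htr : IsPretransitive M α := isPretransitive_normal hα G M hMn hMb
  refine ⟨K, hKG, hKA, ⟨fun a b => ?_⟩, ?_, ?_⟩
  · obtain ⟨m, hm⟩ := exists_smul_eq M a b
    exact ⟨⟨m.1.1, mem_map.mpr ⟨m.1, m.2, rfl⟩⟩, hm⟩
  · intro hs
    apply hG
    let g : G →* ℤˣ := Equiv.Perm.sign.comp G.subtype
    let f : K →* G := inclusion hKG
    refine solvable_of_ker_le_range f g ?_
    intro x hx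
    have h1 : Equiv.Perm.sign (x : Equiv.Perm α) = 1 := hx
    exact ⟨⟨x, hmemK x h1⟩, rfl⟩
  · have h1 : Nat.card M = Nat.card K := Nat.card_congr φ.toEquiv
    have h2 : Nat.card M * M.index = Nat.card G := card_mul_index M
    haveI : Nontrivial α := by
      rw [← Fintype.one_lt_card_iff_nontrivial, hα]
      exact hpp.one_lt
    have h3 : M.index ∣ 2 := by
      have h4 : (alternatingGroup α).relIndex G ∣ (alternatingGroup α).index :=
        relIndex_dvd_index_of_normal _ _
      rwa [alternatingGroup.index_eq_two] at h4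
    rw [← h2, h1]
    rcases (Nat.dvd_prime Nat.prime_two).mp h3 with h | h
    · left; rw [h, mul_one]
    · right; rw [h, mul_comm]

section Seven

instance instFactPrimeSeven : Fact (Nat.Prime 7) := ⟨by norm_num⟩

theorem sign_subLeft_seven :
    ∀ c : ZMod 7, Equiv.Perm.sign (Equiv.subLeft c : Equiv.Perm (ZMod 7)) = -1 := by
  decide +kernel

/-- Order of the Sylow normaliser for even groups of degree `7`. -/
theorem card_normalizer_seven (hα : Fintype.card α = 7) (G : Subgroup (Equiv.Perm α))
    [IsPretransitive G α] (hG : ¬ Group.IsSolvable G) (hGA : G ≤ alternatingGroup α)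
    (P : Sylow 7 G) : Nat.card (normalizer ((P : Subgroup G) : Set G)) = 21 := by
  have h1 := card_normalizer_dvd hα G P
  have h2 : ¬ Even (Nat.card (normalizer ((P : Subgroup G) : Set G))) :=
    not_even_card_normalizer hα G (by norm_num) sign_subLeft_seven hGA P
  have h3 : Nat.card (normalizer ((P : Subgroup G) : Set G)) ≠ 7 := fun h =>
    hG (isSolvable_of_card_normalizer hα G P h)
  have h4 : 7 ∣ Nat.card (normalizer ((P : Subgroup G) : Set G)) := by
    have := card_dvd_of_le (le_normalizer (H := (P : Subgroup G)))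
    rwa [card_sylow hα G P] at this
  generalize Nat.card (normalizer ((P : Subgroup G) : Set G)) = n at h1 h2 h3 h4
  have h5 : n ≤ 42 := Nat.le_of_dvd (by norm_num) h1
  rw [Nat.not_even_iff_odd, Nat.odd_iff] at h2
  have key : ∀ m ≤ 42, m ∣ 7 * (7 - 1) → m % 2 = 1 → m ≠ 7 → 7 ∣ m → m = 21 := by decide
  exact key n h5 h1 h2 h3 h4

/-- Non-solvable transitive subgroups of `A₇` other than `A₇` have order `168`. -/
theorem card_eq_of_le_alternating (hα : Fintype.card α = 7) (G : Subgroup (Equiv.Perm α))
    [IsPretransitive G α] (hG : ¬ Group.IsSolvable G) (hGA : G ≤ alternatingGroup α)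
    (hne : ¬ alternatingGroup α ≤ G) : Nat.card G = 168 := by
  obtain ⟨P⟩ : Nonempty (Sylow 7 G) := inferInstance
  have hN := card_normalizer_seven hα G hG hGA P
  have h1 : Nat.card (normalizer ((P : Subgroup G) : Set G)) * Nat.card (Sylow 7 G) = Nat.card G := by
    rw [Sylow.card_eq_index_normalizer P]
    exact card_mul_index _
  have h2 : Nat.card (Sylow 7 G) % 7 = 1 := card_sylow_modEq_one 7 G
  have h3 : 42 ∣ Nat.card G := by
    have h2t : IsMultiplyPretransitive G α 2 :=
      (burnside (by rw [hα]; norm_num) G).resolve_left hG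
    have := descFactorial_dvd_card h2t (by rw [hα]; norm_num)
    rw [hα] at this
    exact this
  have h4 : Nat.card G ∣ 2520 := by
    have h41 : Nat.card G ∣ Nat.card (alternatingGroup α) := card_dvd_of_le hGA
    haveI : Nontrivial α := by
      rw [← Fintype.one_lt_card_iff_nontrivial, hα]
      norm_num
    rw [nat_card_alternatingGroup, Nat.card_eq_fintype_card (α := α), hα] at h41
    exact h41
  rw [hN] at h1
  generalize hn : Nat.card (Sylow 7 G) = n at h1 h2
  have h5 : n = 8 ∨ n = 120 := by
    rw [← h1] at h3 h4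
    have h6 : n ∣ 120 := Nat.dvd_of_mul_dvd_mul_left (by norm_num : 0 < 21) (by simpa using h4)
    have h7 : 2 ∣ n := Nat.dvd_of_mul_dvd_mul_left (by norm_num : 0 < 21) (by simpa using h3)
    have h8 : n ≤ 120 := Nat.le_of_dvd (by norm_num) h6
    have key : ∀ m ≤ 120, m % 7 = 1 → m ∣ 120 → 2 ∣ m → m = 8 ∨ m = 120 := by decide
    exact key n h8 h2 h6 h7
  rcases h5 with rfl | rfl
  · rw [← h1]
  · exfalso
    apply hne
    have h9 : G = alternatingGroup α := by
      apply eq_of_le_of_card_ge hGA
      haveI : Nontrivial α := by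
        rw [← Fintype.one_lt_card_iff_nontrivial, hα]
        norm_num
      rw [nat_card_alternatingGroup, Nat.card_eq_fintype_card (α := α), hα, ← h1]
      decide
    rw [h9]

/-- A non-solvable transitive subgroup of `A₇` other than `A₇` is simple. -/
theorem isSimpleGroup_of_le_alternating (hα : Fintype.card α = 7) (G : Subgroup (Equiv.Perm α))
    [IsPretransitive G α] (hG : ¬ Group.IsSolvable G) (hGA : G ≤ alternatingGroup α)
    (hne : ¬ alternatingGroup α ≤ G) : IsSimpleGroup G := by
  have hcard := card_eq_of_le_alternating hα G hG hGA hne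
  haveI : Nontrivial G := by
    rw [← Finite.one_lt_card_iff_nontrivial, hcard]
    norm_num
  refine ⟨fun M hMn => ?_⟩
  by_contra hcon
  push Not at hcon
  obtain ⟨hMb, hMt⟩ := hcon
  -- the image in the symmetric group
  let M' : Subgroup (Equiv.Perm α) := M.map G.subtype
  haveI htr : IsPretransitive M α := isPretransitive_normal hα G M hMn hMb
  haveI htr' : IsPretransitive M' α := by
    refine ⟨fun a b => ?_⟩
    obtain ⟨m, hm⟩ := exists_smul_eq M a b
    exact ⟨⟨m.1.1, mem_map.mpr ⟨m.1, m.2, rfl⟩⟩, hm⟩
  let φ : M ≃* M' := M.equivMapOfInjective G.subtype G.subtype_injective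
  have hM'le : M' ≤ G := by
    rintro _ ⟨m, -, rfl⟩
    exact m.2
  by_cases hsol : Group.IsSolvable M'
  · -- there is a normal subgroup of order `7` in `M`, hence in `G`
    obtain ⟨A, hAn, -, hAc⟩ := exists_normal_order_p hα M' hsol
    let A₁ : Subgroup M := A.map φ.symm.toMonoidHom
    have hA₁n : A₁.Normal := hAn.map _ φ.symm.surjective
    have hA₁c : Nat.card A₁ = 7 := by
      rw [← hAc]
      exact Nat.card_congr (A.equivMapOfInjective _ φ.symm.injective).symm.toEquiv
    have hMdvd : Nat.card M ∣ 168 := by
      rw [← hcard]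
      exact card_subgroup_dvd_card M
    have hnd : ¬ 7 ∣ A₁.index := by
      intro h7
      have h1 := card_mul_index A₁
      rw [hA₁c] at h1
      have h2 : 49 ∣ Nat.card M := by
        rw [← h1]
        exact mul_dvd_mul_left 7 h7
      have h3 := h2.trans hMdvd
      norm_num at h3
    let S : Sylow 7 M := IsPGroup.toSylow (IsPGroup.of_card (n := 1) (by rw [hA₁c, pow_one])) hnd
    have hSA : (S : Subgroup M) = A₁ := IsPGroup.toSylow_coe _ _
    have hSn : (S : Subgroup M).Normal := by rw [hSA]; exact hA₁n
    have hchar := S.characteristic_of_normal hSn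
    have hnorm : ((S : Subgroup M).map M.subtype).Normal :=
      Cfsg.Agent.Lib.PermMod.MinNormal.map_normal_of_characteristic hMn hchar
    have hcardS : Nat.card ((S : Subgroup M).map M.subtype) = 7 := by
      refine Eq.trans ?_ hA₁c
      rw [hSA]
      exact Nat.card_congr (A₁.equivMapOfInjective _ M.subtype_injective).symm.toEquiv
    have hndG : ¬ 7 ∣ ((S : Subgroup M).map M.subtype).index := by
      intro h7
      have h1 := card_mul_index ((S : Subgroup M).map M.subtype)
      rw [hcardS, hcard] at h1
      have h2 : 49 ∣ 168 := by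
        rw [← h1]
        exact mul_dvd_mul_left 7 h7
      norm_num at h2
    let T : Sylow 7 G := IsPGroup.toSylow (IsPGroup.of_card (n := 1) (by rw [hcardS, pow_one])) hndG
    have hTS : (T : Subgroup G) = (S : Subgroup M).map M.subtype := IsPGroup.toSylow_coe _ _
    have hTn : normalizer ((T : Subgroup G) : Set G) = ⊤ := by
      rw [hTS]
      exact normalizer_eq_top_iff.mpr hnorm
    have h5 := card_normalizer_dvd hα G T
    rw [hTn, card_top, hcard] at h5
    norm_num at h5
  · -- `M'` has order `168`
    have h5 := card_eq_of_le_alternating hα M' hsol (hM'le.trans hGA)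
      (fun h => hne (h.trans hM'le))
    apply hMt
    apply eq_top_of_card_eq
    rw [hcard, ← h5]
    exact Nat.card_congr φ.toEquiv

end Seven

end Cfsg.Agent.Lib.PermMod.PrimeSmall
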