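import Mathlib.Data.ZMod.Basic
import Mathlib.Algebra.Field.ZMod
import Mathlib.LinearAlgebra.Matrix.GeneralLinearGroup.Defs
import Mathlib.LinearAlgebra.Matrix.Determinant.Basic
import Mathlib.LinearAlgebra.Matrix.NonsingularInverse
import Mathlib.Data.Matrix.Mul
import Mathlib.SetTheory.Cardinal.Finite
import Mathlib.Algebra.Group.Subgroup.Lattice
import Mathlib.Data.Nat.Bitwise
import Mathlib.Data.Fin.VecNotation
import Mathlib.LinearAlgebra.Matrix.Notation

/-!
Kernel-checkable certificates that a subgroup of `GL(2, p)` given by generators is regular on the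
non-zero vectors of `F_p^2`.

The certificate is a table `c` sending a vector to the candidate for the second column of the unique
group element with that vector as first column.
-/

set_option autoImplicit false

namespace Cfsg.Agent.Lib.PermMod.LinReg

/-- Coordinates of a matrix as a tuple of naturals. -/
abbrev Code := ℕ × ℕ × ℕ × ℕ

/-- The action of a matrix on the code `x * p + y` of the vector `(x, y)`. -/
def actC (p : ℕ) (s : Code) (i : ℕ) : ℕ :=
  ((s.1 * (i / p) + s.2.1 * (i % p)) % p) * p + (s.2.2.1 * (i / p) + s.2.2.2 * (i % p)) % p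

/-- Table lookup. -/
def look (T w i : ℕ) : ℕ := (T >>> (w * i)) % 2 ^ w

/-- Equivariance check. -/
def checkEquiv (p T w : ℕ) (s : Code) : Bool :=
  (List.range (p * p)).all fun i =>
    Nat.beq i 0 || Nat.beq (look T w (actC p s i)) (actC p s (look T w i))

/-- Independence check. -/
def checkBasis (p T w : ℕ) : Bool :=
  (List.range (p * p)).all fun i =>
    Nat.beq i 0 ||
      !(Nat.beq (((i / p) * (look T w i % p)) % p) (((i % p) * (look T w i / p)) % p))

/-- If bit `i` of `m` is set, set the bit of the image of `i`. -/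
def stepBit (p : ℕ) (s : Code) (m i : ℕ) : ℕ :=
  if m.testBit i then m ||| (2 ^ actC p s i) else m

/-- Force the evaluation of a natural number by the kernel before continuing. -/
def forceNat {β : Type} (n : ℕ) (k : ℕ → β) : β := Nat.casesOn n (k 0) (fun n' => k (n' + 1))

theorem forceNat_eq {β : Type} (n : ℕ) (k : ℕ → β) : forceNat n k = k n := by
  cases n <;> rfl

def sweepL (p : ℕ) (s : Code) : List ℕ → ℕ → ℕ
  | [], m => m
  | i :: l, m => forceNat (stepBit p s m i) (sweepL p s l)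

def sweep (p : ℕ) (s : Code) (m : ℕ) : ℕ := sweepL p s (List.range (p * p)) m

def sweepAll (p : ℕ) : List Code → ℕ → ℕ
  | [], m => m
  | s :: l, m => forceNat (sweep p s m) (sweepAll p l)

def bfs (p : ℕ) (gens : List Code) : ℕ → ℕ → ℕ
  | 0, m => m
  | k + 1, m => forceNat (sweepAll p gens m) (bfs p gens k)

variable {p : ℕ} [hp : Fact p.Prime]

/-- Decoding a code into a vector. -/
def dec (p : ℕ) (i : ℕ) : Fin 2 → ZMod p := ![((i / p : ℕ) : ZMod p), ((i % p : ℕ) : ZMod p)]

/-- Encoding a vector. -/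
def enc (v : Fin 2 → ZMod p) : ℕ := (v 0).val * p + (v 1).val

/-- The matrix of a code. -/
def toM (p : ℕ) (s : Code) : Matrix (Fin 2) (Fin 2) (ZMod p) :=
  !![(s.1 : ZMod p), (s.2.1 : ZMod p); (s.2.2.1 : ZMod p), (s.2.2.2 : ZMod p)]

theorem enc_div (v : Fin 2 → ZMod p) : enc v / p = (v 0).val := by
  have hp0 : 0 < p := hp.out.pos
  rw [enc, mul_comm, Nat.mul_add_div hp0, Nat.div_eq_of_lt (ZMod.val_lt _), add_zero]

theorem enc_mod (v : Fin 2 → ZMod p) : enc v % p = (v 1).val := by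
  rw [enc, Nat.mul_add_mod_of_lt (ZMod.val_lt _)]

theorem dec_enc (v : Fin 2 → ZMod p) : dec p (enc v) = v := by
  ext i
  fin_cases i
  · simp [dec, enc_div]
  · simp [dec, enc_mod]

theorem enc_lt (v : Fin 2 → ZMod p) : enc v < p * p := by
  have h0 := ZMod.val_lt (v 0)
  have h1 := ZMod.val_lt (v 1)
  rw [enc]
  calc (v 0).val * p + (v 1).val < (v 0).val * p + p := by omega
    _ = ((v 0).val + 1) * p := by ring
    _ ≤ p * p := Nat.mul_le_mul_right _ h0

theorem enc_ne_zero {v : Fin 2 → ZMod p} (hv : v ≠ 0) : enc v ≠ 0 := by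
  intro h
  apply hv
  rw [← dec_enc v, h]
  ext i
  fin_cases i <;> simp [dec]

theorem mulVec_toM (s : Code) (v : Fin 2 → ZMod p) :
    (toM p s).mulVec v = ![(s.1 : ZMod p) * v 0 + (s.2.1 : ZMod p) * v 1,
      (s.2.2.1 : ZMod p) * v 0 + (s.2.2.2 : ZMod p) * v 1] := by
  ext i
  fin_cases i <;> simp [toM, Matrix.mulVec, dotProduct, Fin.sum_univ_two]

theorem dec_actC (s : Code) (i : ℕ) : dec p (actC p s i) = (toM p s).mulVec (dec p i) := by
  have hp0 : 0 < p := hp.out.pos
  rw [mulVec_toM]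
  have h1 : actC p s i / p = (s.1 * (i / p) + s.2.1 * (i % p)) % p := by
    rw [actC, mul_comm, Nat.mul_add_div hp0, Nat.div_eq_of_lt (Nat.mod_lt _ hp0), add_zero]
  have h2 : actC p s i % p = (s.2.2.1 * (i / p) + s.2.2.2 * (i % p)) % p := by
    rw [actC, Nat.mul_add_mod_of_lt (Nat.mod_lt _ hp0)]
  ext j
  fin_cases j
  · simp [dec, h1]
  · simp [dec, h2]

theorem enc_mulVec (s : Code) (v : Fin 2 → ZMod p) :
    enc ((toM p s).mulVec v) = actC p s (enc v) := by
  rw [mulVec_toM, actC, enc_div, enc_mod, enc]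
  have key : ∀ a b : ℕ, (((a : ZMod p) * v 0 + (b : ZMod p) * v 1 : ZMod p)).val
      = (a * (v 0).val + b * (v 1).val) % p := by
    intro a b
    rw [← ZMod.val_natCast]
    push_cast
    simp
  simp only [Matrix.cons_val_zero, Matrix.cons_val_one, key]

/-- The candidate second column. -/
def col (p T w : ℕ) (v : Fin 2 → ZMod p) : Fin 2 → ZMod p := dec p (look T w (enc v))

theorem col_equiv {T w : ℕ} {s : Code} (h : checkEquiv p T w s = true) {v : Fin 2 → ZMod p}
    (hv : v ≠ 0) : col p T w ((toM p s).mulVec v) = (toM p s).mulVec (col p T w v) := by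
  rw [checkEquiv, List.all_eq_true] at h
  have h1 := h (enc v) (List.mem_range.mpr (enc_lt v))
  have h2 : Nat.beq (enc v) 0 = false := by
    rw [← Bool.not_eq_true, Nat.beq_eq]
    exact enc_ne_zero hv
  rw [h2, Bool.false_or, Nat.beq_eq] at h1
  rw [col, col, enc_mulVec, h1, dec_actC]

theorem col_basis {T w : ℕ} (h : checkBasis p T w = true) {v : Fin 2 → ZMod p} (hv : v ≠ 0) :
    v 0 * col p T w v 1 ≠ v 1 * col p T w v 0 := by
  rw [checkBasis, List.all_eq_true] at h
  have h1 := h (enc v) (List.mem_range.mpr (enc_lt v))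
  have h2 : Nat.beq (enc v) 0 = false := by
    rw [← Bool.not_eq_true, Nat.beq_eq]
    exact enc_ne_zero hv
  rw [h2, Bool.false_or, enc_div, enc_mod, Bool.not_eq_true', ← Bool.not_eq_true,
    Nat.beq_eq] at h1
  intro h3
  apply h1
  rw [← ZMod.natCast_eq_natCast_iff']
  push_cast
  simpa [col, dec] using h3

/-- The invariant of the breadth first search: every set bit is in `O`. -/
def Inv (p : ℕ) (O : Set (Fin 2 → ZMod p)) (m : ℕ) : Prop := ∀ i, m.testBit i = true → dec p i ∈ O

theorem inv_stepBit {O : Set (Fin 2 → ZMod p)} {s : Code}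
    (hO : ∀ v ∈ O, (toM p s).mulVec v ∈ O) {m : ℕ} (hm : Inv p O m) (i : ℕ) :
    Inv p O (stepBit p s m i) := by
  unfold stepBit
  split_ifs with h
  · intro j hj
    rw [Nat.testBit_or, Bool.or_eq_true] at hj
    rcases hj with hj | hj
    · exact hm j hj
    · rw [Nat.testBit_two_pow] at hj
      have : actC p s i = j := of_decide_eq_true hj
      rw [← this, dec_actC]
      exact hO _ (hm i h)
  · exact hm

theorem inv_sweep {O : Set (Fin 2 → ZMod p)} {s : Code}
    (hO : ∀ v ∈ O, (toM p s).mulVec v ∈ O) {m : ℕ} (hm : Inv p O m) :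
    Inv p O (sweep p s m) := by
  unfold sweep
  generalize List.range (p * p) = l
  induction l generalizing m with
  | nil => exact hm
  | cons a l ih =>
    rw [sweepL, forceNat_eq]
    exact ih (inv_stepBit hO hm a)

theorem inv_sweepAll {O : Set (Fin 2 → ZMod p)} {gens : List Code}
    (hO : ∀ s ∈ gens, ∀ v ∈ O, (toM p s).mulVec v ∈ O) {m : ℕ} (hm : Inv p O m) :
    Inv p O (sweepAll p gens m) := by
  induction gens generalizing m with
  | nil => exact hm
  | cons a l ih =>
    rw [sweepAll, forceNat_eq]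
    exact ih (fun s hs => hO s (List.mem_cons_of_mem _ hs))
      (inv_sweep (hO a List.mem_cons_self) hm)

theorem inv_bfs {O : Set (Fin 2 → ZMod p)} {gens : List Code}
    (hO : ∀ s ∈ gens, ∀ v ∈ O, (toM p s).mulVec v ∈ O) (k : ℕ) {m : ℕ} (hm : Inv p O m) :
    Inv p O (bfs p gens k m) := by
  induction k generalizing m with
  | zero => exact hm
  | succ k ih =>
    rw [bfs, forceNat_eq]
    exact ih (inv_sweepAll hO hm)

/-- The first basis vector. -/
def e1 (p : ℕ) : Fin 2 → ZMod p := ![1, 0]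

theorem mem_of_bfs {O : Set (Fin 2 → ZMod p)} {gens : List Code}
    (hO : ∀ s ∈ gens, ∀ v ∈ O, (toM p s).mulVec v ∈ O) (h0 : (0 : Fin 2 → ZMod p) ∈ O)
    (h1 : e1 p ∈ O) {k : ℕ} (hk : bfs p gens k (2 ^ 0 ||| 2 ^ p) = 2 ^ (p * p) - 1)
    (v : Fin 2 → ZMod p) : v ∈ O := by
  have hp0 : 0 < p := hp.out.pos
  have hstart : Inv p O (2 ^ 0 ||| 2 ^ p) := by
    intro i hi
    rw [Nat.testBit_or, Bool.or_eq_true, Nat.testBit_two_pow, Nat.testBit_two_pow] at hi
    rcases hi with hi | hi
    · have : 0 = i := of_decide_eq_true hi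
      subst this
      convert h0 using 1
      ext j
      fin_cases j <;> simp [dec]
    · have : p = i := of_decide_eq_true hi
      subst this
      convert h1 using 1
      ext j
      fin_cases j
      · simp [dec, e1, Nat.div_self hp0]
      · simp [dec, e1]
  have := inv_bfs hO k hstart
  rw [hk] at this
  rw [← dec_enc v]
  apply this
  rw [Nat.testBit_two_pow_sub_one]
  exact decide_eq_true (enc_lt v)

theorem inv_mulVec_mulVec (g : Matrix.GeneralLinearGroup (Fin 2) (ZMod p)) (v : Fin 2 → ZMod p) :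
    Matrix.mulVec ((g⁻¹ : Matrix.GeneralLinearGroup (Fin 2) (ZMod p)) : Matrix (Fin 2) (Fin 2) (ZMod p))
      (Matrix.mulVec (g : Matrix (Fin 2) (Fin 2) (ZMod p)) v) = v := by
  rw [Matrix.mulVec_mulVec, ← Units.val_mul, inv_mul_cancel, Units.val_one, Matrix.one_mulVec]

theorem mulVec_inv_mulVec (g : Matrix.GeneralLinearGroup (Fin 2) (ZMod p)) (v : Fin 2 → ZMod p) :
    Matrix.mulVec (g : Matrix (Fin 2) (Fin 2) (ZMod p))
      (Matrix.mulVec ((g⁻¹ : Matrix.GeneralLinearGroup (Fin 2) (ZMod p)) : Matrix (Fin 2) (Fin 2) (ZMod p)) v) = v := by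
  rw [Matrix.mulVec_mulVec, ← Units.val_mul, mul_inv_cancel, Units.val_one, Matrix.one_mulVec]

theorem mulVec_ne_zero (g : Matrix.GeneralLinearGroup (Fin 2) (ZMod p)) {v : Fin 2 → ZMod p}
    (hv : v ≠ 0) : Matrix.mulVec (g : Matrix (Fin 2) (Fin 2) (ZMod p)) v ≠ 0 := by
  intro h
  apply hv
  rw [← inv_mulVec_mulVec g v, h, Matrix.mulVec_zero]

/-- The elements compatible with a column map. -/
def compat (c : (Fin 2 → ZMod p) → (Fin 2 → ZMod p)) :
    Subgroup (Matrix.GeneralLinearGroup (Fin 2) (ZMod p)) where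
  carrier := {g | ∀ v, v ≠ 0 → c (Matrix.mulVec (g : Matrix (Fin 2) (Fin 2) (ZMod p)) v)
    = Matrix.mulVec (g : Matrix (Fin 2) (Fin 2) (ZMod p)) (c v)}
  one_mem' := by
    intro v _
    simp
  mul_mem' := by
    intro g g' hg hg' v hv
    simp only [Units.val_mul]
    rw [← Matrix.mulVec_mulVec, hg _ (mulVec_ne_zero g' hv), hg' v hv, Matrix.mulVec_mulVec]
  inv_mem' := by
    intro g hg v hv
    have h1 := hg _ (mulVec_ne_zero g⁻¹ hv)
    rw [mulVec_inv_mulVec] at h1
    rw [h1, inv_mulVec_mulVec]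

/-- Main theorem: a certificate for regularity. -/
theorem regular_of_check (S : Set (Matrix.GeneralLinearGroup (Fin 2) (ZMod p))) (gens : List Code)
    (T w k : ℕ)
    (hS1 : ∀ g ∈ S, ∃ s ∈ gens, (g : Matrix (Fin 2) (Fin 2) (ZMod p)) = toM p s)
    (hS2 : ∀ s ∈ gens, ∃ g ∈ S, (g : Matrix (Fin 2) (Fin 2) (ZMod p)) = toM p s)
    (hE : gens.all (checkEquiv p T w) = true)
    (hB : checkBasis p T w = true)
    (hO : bfs p gens k (2 ^ 0 ||| 2 ^ p) = 2 ^ (p * p) - 1) :
    Nat.card (Subgroup.closure S) = p * p - 1 ∧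
      ∀ v w' : Fin 2 → ZMod p, v ≠ 0 → w' ≠ 0 →
        ∃! h : Subgroup.closure S, Matrix.mulVec
          ((h : Matrix.GeneralLinearGroup (Fin 2) (ZMod p)) : Matrix (Fin 2) (Fin 2) (ZMod p)) v = w' := by
  classical
  set X := Subgroup.closure S with hX
  rw [List.all_eq_true] at hE
  have hXY : X ≤ compat (col p T w) := by
    rw [hX, Subgroup.closure_le]
    intro g hg v hv
    obtain ⟨s, hs, hgs⟩ := hS1 g hg
    rw [hgs]
    exact col_equiv (hE s hs) hv
  -- semiregularity
  have hfix : ∀ g ∈ X, ∀ v : Fin 2 → ZMod p, v ≠ 0 →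
      Matrix.mulVec (g : Matrix (Fin 2) (Fin 2) (ZMod p)) v = v → g = 1 := by
    intro g hg v hv hgv
    have h1 := hXY hg v hv
    rw [hgv] at h1
    let c := col p T w v
    let M : Matrix (Fin 2) (Fin 2) (ZMod p) := !![v 0, c 0; v 1, c 1]
    have hdet : IsUnit M.det := by
      have hne : M.det ≠ 0 := by
        rw [Matrix.det_fin_two_of]
        intro h
        apply col_basis hB hv
        rw [mul_comm (v 1)]
        exact sub_eq_zero.mp h
      exact IsUnit.mk0 M.det hne
    have hMunit : IsUnit M := (Matrix.isUnit_iff_isUnit_det M).mpr hdet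
    have hgM : (g : Matrix (Fin 2) (Fin 2) (ZMod p)) * M = 1 * M := by
      rw [one_mul]
      ext i j
      have h2 := congrFun hgv i
      have h3 := congrFun h1.symm i
      rw [Matrix.mulVec, dotProduct, Fin.sum_univ_two] at h2 h3
      have hM0 : ∀ i, M i 0 = v i := by
        intro i
        fin_cases i <;> rfl
      have hM1 : ∀ i, M i 1 = c i := by
        intro i
        fin_cases i <;> rfl
      rw [Matrix.mul_apply, Fin.sum_univ_two]
      fin_cases j
      · change _ * M 0 0 + _ * M 1 0 = M i 0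
        rw [hM0, hM0, hM0]
        exact h2
      · change _ * M 0 1 + _ * M 1 1 = M i 1
        rw [hM1, hM1, hM1]
        exact h3
    have := (IsUnit.mul_left_inj hMunit).mp hgM
    exact Units.ext this
  -- transitivity
  let O : Set (Fin 2 → ZMod p) :=
    {v | v = 0 ∨ ∃ g ∈ X, Matrix.mulVec (g : Matrix (Fin 2) (Fin 2) (ZMod p)) (e1 p) = v}
  have hOcl : ∀ s ∈ gens, ∀ v ∈ O, (toM p s).mulVec v ∈ O := by
    intro s hs v hv
    obtain ⟨g, hg, hgs⟩ := hS2 s hs
    rcases hv with rfl | ⟨h, hh, rfl⟩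
    · left
      exact Matrix.mulVec_zero _
    · right
      refine ⟨g * h, X.mul_mem (Subgroup.subset_closure hg) hh, ?_⟩
      rw [Units.val_mul, ← Matrix.mulVec_mulVec, hgs]
  have horb : ∀ v : Fin 2 → ZMod p, v ≠ 0 →
      ∃ g ∈ X, Matrix.mulVec (g : Matrix (Fin 2) (Fin 2) (ZMod p)) (e1 p) = v := by
    intro v hv
    have h1 : v ∈ O := by
      apply mem_of_bfs hOcl (Or.inl rfl) (Or.inr ⟨1, X.one_mem, by simp⟩) hO
    exact h1.resolve_left hv
  have he1 : e1 p ≠ 0 := by
    intro h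
    have := congrFun h 0
    simp [e1] at this
  constructor
  · -- counting
    have hbij : Function.Bijective (fun h : X => (⟨Matrix.mulVec
        ((h : Matrix.GeneralLinearGroup (Fin 2) (ZMod p)) : Matrix (Fin 2) (Fin 2) (ZMod p)) (e1 p),
        mulVec_ne_zero _ he1⟩ : {v : Fin 2 → ZMod p // v ≠ 0})) := by
      constructor
      · intro h h' hh
        have h1 : Matrix.mulVec ((h : Matrix.GeneralLinearGroup (Fin 2) (ZMod p)) : Matrix (Fin 2) (Fin 2) (ZMod p)) (e1 p)
            = Matrix.mulVec ((h' : Matrix.GeneralLinearGroup (Fin 2) (ZMod p)) : Matrix (Fin 2) (Fin 2) (ZMod p)) (e1 p) :=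
          congrArg Subtype.val hh
        have h2 : ((h' : Matrix.GeneralLinearGroup (Fin 2) (ZMod p)))⁻¹ * (h : Matrix.GeneralLinearGroup (Fin 2) (ZMod p)) = 1 := by
          apply hfix _ (X.mul_mem (X.inv_mem h'.2) h.2) (e1 p) he1
          rw [Units.val_mul, ← Matrix.mulVec_mulVec, h1, inv_mulVec_mulVec]
        exact Subtype.ext (inv_mul_eq_one.mp h2).symm
      · rintro ⟨v, hv⟩
        obtain ⟨g, hg, hgv⟩ := horb v hv
        exact ⟨⟨g, hg⟩, Subtype.ext hgv⟩
    rw [Nat.card_congr (Equiv.ofBijective _ hbij), Nat.card_eq_fintype_card,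
      Fintype.card_subtype_compl]
    simp [ZMod.card, sq]
  · intro v w' hv hw'
    obtain ⟨g₁, hg₁, h₁⟩ := horb v hv
    obtain ⟨g₂, hg₂, h₂⟩ := horb w' hw'
    refine ⟨⟨g₂ * g₁⁻¹, X.mul_mem hg₂ (X.inv_mem hg₁)⟩, ?_, ?_⟩
    · change Matrix.mulVec (((g₂ * g₁⁻¹ : Matrix.GeneralLinearGroup (Fin 2) (ZMod p))) : Matrix (Fin 2) (Fin 2) (ZMod p)) v = w'
      rw [Units.val_mul, ← Matrix.mulVec_mulVec, ← h₁, inv_mulVec_mulVec, h₂]
    · rintro ⟨h, hh⟩ hhv
      apply Subtype.ext
      change h = g₂ * g₁⁻¹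
      have hhv' : Matrix.mulVec (h : Matrix (Fin 2) (Fin 2) (ZMod p)) v = w' := hhv
      have h2 : (g₂ * g₁⁻¹)⁻¹ * h = 1 := by
        apply hfix _ (X.mul_mem (X.inv_mem (X.mul_mem hg₂ (X.inv_mem hg₁))) hh) v hv
        rw [Units.val_mul, ← Matrix.mulVec_mulVec, hhv']
        have h3 : Matrix.mulVec (((g₂ * g₁⁻¹ : Matrix.GeneralLinearGroup (Fin 2) (ZMod p))) : Matrix (Fin 2) (Fin 2) (ZMod p)) v = w' := by
          rw [Units.val_mul, ← Matrix.mulVec_mulVec, ← h₁, inv_mulVec_mulVec, h₂]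
        rw [← h3, inv_mulVec_mulVec]
      exact (inv_mul_eq_one.mp h2).symm

end Cfsg.Agent.Lib.PermMod.LinReg
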